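import Cfsg.Agent.R16.Pur8
import Cfsg.Agent.R16.Diag
import Cfsg.Agent.R16.EvA
import Cfsg.Agent.KKL.Four
import Cfsg.Agent.KKL.Num2
import Cfsg.Agent.KKL.GrpB
import Cfsg.Agent.Block.BDGrid
import Cfsg.Agent.Block.BDAb

set_option autoImplicit false

open Cfsg Cfsg.Lib Cfsg.Lib.Char Cfsg.Lib.Block MulAction

namespace Cfsg.Lib.R16

open Cfsg.Lib.KKL

universe u

section BD
variable {M : Ideal AlgInt} {S : Type u} [Group S]

namespace Eight3

theorem comm (hsq : ∀ u : S, u * u = 1) (x y : S) : x * y = y * x := by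
  have h := fun a : S => inv_eq_of_mul_eq_one_right (hsq a)
  rw [← h (x * y), mul_inv_rev, h, h]

theorem rk13 (c : BD 2 M S) (h8 : Nat.card S = 8) (hsq : ∀ u : S, u * u = 1) {u : S} (hu : u ≠ 1)
    (ht : ∀ v, v ≠ 1 → c.ef u v) : c.rk u = 1 ∨ c.rk u = 3 := by
  have := c.finite
  have hc := comm hsq
  have e1 : stabilizer c.aut u = (AG.Sb c.aut u).subgroupOf c.aut := by
    ext g
    exact ⟨fun hg => ⟨g.2, hg⟩, fun hg => hg.2⟩
  have e2 : orbit c.aut u = {1}ᶜ := by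
    ext v
    refine ⟨?_, fun hv => ?_⟩
    · rintro ⟨a, rfl⟩ h
      exact hu ((map_eq_one_iff a.1 a.1.injective).1 h)
    · obtain ⟨a, ha, e⟩ := (BD.ef_iff hc).1 (ht v hv)
      exact ⟨⟨a, ha⟩, e⟩
  have e3 := (stabilizer c.aut u).card_mul_index
  rw [index_stabilizer, e2, e1, Nat.card_congr (Subgroup.subgroupOfEquivOfLe
    (show AG.Sb c.aut u ≤ c.aut from inf_le_left)).toEquiv, Set.ncard_compl,
    Set.ncard_singleton, h8] at e3
  have h := grpB h8 hsq c.aut (c.not_dvd_card_aut hc)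
  have h3 : Nat.card (AG.Sb c.aut u) = 1 ∨ Nat.card (AG.Sb c.aut u) = 3 := by omega
  rw [BD.rk_eq_of_le_three hc (by omega)]
  exact h3

theorem odd (c : BD 2 M S) (h8 : Nat.card S = 8) (hsq : ∀ u : S, u * u = 1) {u : S} (hu : u ≠ 1)
    (η : regLat 2 (c.sb u)) (ho : ¬ (2 : ℤ) ∣ bf 2 (c.sb u) η η) :
    bf 2 (c.sb u) η η % 8 = c.rk u := by
  have := c.finite
  have h4 : u ∈ Subgroup.center S := Subgroup.mem_center_iff.2 fun g => comm hsq g u
  have := normal_zpowers h4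
  obtain ⟨d, h5⟩ := c.exists_cq' h4
  obtain ⟨-, ε, h6, -⟩ := h5.iso
  obtain ⟨η, rfl⟩ := ε.surjective η
  rw [h6] at ho ⊢
  rw [← h5.l_eq]
  refine four d ?_ (fun x => ?_) η ho
  · have h7 := (Subgroup.zpowers u).card_mul_index
    rw [Nat.card_zpowers, orderOf_eq_prime (p := 2) (by rw [sq, hsq]) hu, h8] at h7
    rw [← Subgroup.index_eq_card]; omega
  · obtain ⟨x, rfl⟩ := QuotientGroup.mk_surjective x
    rw [← QuotientGroup.mk_mul, hsq, QuotientGroup.mk_one]

theorem kl (c : BD 2 M S) {u : S} (hu : u ≠ 1) (ht : ∀ v, v ≠ 1 → c.ef u v) :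
    c.k = c.l + c.rk u := by
  classical
  have := c.finite
  have := Fintype.ofFinite S
  have h1 := c.k_eq_sum
  have h2 := BD.sum_wt_ef (b := c) u
  have h3 := BD.sum_wt_ef (b := c) 1
  rw [show (Finset.univ.filter fun v => c.ef u v) = Finset.univ.erase 1 from by
    ext v
    simp only [Finset.mem_filter, Finset.mem_univ, true_and, Finset.mem_erase, and_true]
    exact ⟨fun h e => hu (BD.ef.eq_one (e ▸ h.symm)), ht v⟩] at h2
  rw [show (Finset.univ.filter fun v => c.ef 1 v) = {1} from by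
    ext v
    simp only [Finset.mem_filter, Finset.mem_univ, true_and, Finset.mem_singleton]
    exact ⟨BD.ef.eq_one, fun h => h.symm ▸ c.ef_refl _⟩, Finset.sum_singleton, c.rk_one] at h3
  rw [← Finset.add_sum_erase _ _ (Finset.mem_univ 1), h2, h3] at h1
  exact_mod_cast h1

end Eight3

theorem eight2 (c : BD 2 M S) (h8 : Nat.card S = 8) (hsq : ∀ u : S, u * u = 1) {u : S} (hu : u ≠ 1)
    (ht : ∀ v, v ≠ 1 → c.ef u v) : c.k = 8 ∧ (c.rk u = 1 ∨ c.rk u = 3) ∧ c.k = c.l + c.rk u := by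
  classical
  have hr := Eight3.rk13 c h8 hsq hu ht
  refine ⟨?_, hr, Eight3.kl c hu ht⟩
  have : Nontrivial S := ⟨u, 1, hu⟩
  obtain ⟨η, hm, hs, hη⟩ := num2 c h8 hsq hu ht
  obtain ⟨N, hN, hpar, -⟩ := diag c hsq u
  rw [h8] at hN
  have hN8 : ∀ χ ψ, (8 : ℂ) * c.mat (c.dlt u) χ ψ = N χ ψ := fun χ ψ => by
    rw [← hN]; norm_num
  have e : ∀ χ ψ, N χ ψ = bf 2 (c.sb u) (η χ) (η ψ) := fun χ ψ => by
    have := (hN8 χ ψ).symm.trans (hm χ ψ)
    exact_mod_cast this
  have h0 : ∀ χ ∈ c.B, blockHeight 2 c.B (χ : c.G → ℂ) = 0 →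
      bf 2 (c.sb u) (η χ) (η χ) = c.rk u := fun χ hχ h => by
    obtain ⟨a1, a2, a3, -⟩ := hη χ hχ
    have := Eight3.odd c h8 hsq hu _ (a3.1 h)
    omega
  have h1 : ∀ χ ∈ c.B, ¬ blockHeight 2 c.B (χ : c.G → ℂ) = 0 →
      bf 2 (c.sb u) (η χ) (η χ) = 4 := fun χ hχ h => by
    obtain ⟨a1, a2, -, a4⟩ := hη χ hχ
    have a5 := a4 h
    have a6 : (2 : ℤ) ^ 2 ∣ _ := (pow_dvd_pow 2 (by omega)).trans a5
    omega
  have hd : c.dlt u * c.dlt u = c.dlt u := funext fun x => by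
    simp only [Pi.mul_apply, BD.dlt]
    split_ifs <;> simp
  obtain ⟨ψ, hψ, hψ0⟩ := Ht.exists_blockHeight_eq_zero 2 (isPBlock_nonempty c.hM c.hB)
  have key := pur8 (irrFin c.B) N (fun χ => blockHeight 2 c.B (χ : c.G → ℂ) = 0) (c.rk u)
    (by rcases hr with h | h <;> simp [h])
    (fun i j => by
      have h := BD.conj_mat (BD.st_dlt (b := c) u) (fun v => by
        simp only [BD.dlt]; split_ifs <;> simp) i j
      have h2 := congrArg (starRingEnd ℂ) (hN8 i j)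
      rw [map_mul, h, map_intCast, map_ofNat, hN8] at h2
      exact_mod_cast h2.symm)
    (fun i j => by
      have h := BD.mat_mul (BD.st_dlt (b := c) u) (BD.st_dlt (b := c) u) i j
      rw [hd] at h
      have h2 : ((∑ k ∈ irrFin c.B, N i k * N k j : ℤ) : ℂ) = ((8 * N i j : ℤ) : ℂ) := by
        push_cast
        simp only [← hN8]
        rw [← h, Finset.mul_sum, Finset.mul_sum]
        exact Finset.sum_congr rfl fun k _ => by ring
      exact_mod_cast h2)
    (fun i hi j hj => hpar i (mem_irrFin.1 hi) j (mem_irrFin.1 hj))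
    (fun i hi h => by rw [e]; exact h0 i (mem_irrFin.1 hi) h)
    (fun i hi h => by rw [e]; exact h1 i (mem_irrFin.1 hi) h)
    (by simp only [e]; exact hs) ⟨ψ, mem_irrFin.2 hψ, hψ0⟩
    (fun a ha => evA c hsq a fun v hv χ => by
      have hv' : c.dlt v = c.dlt u := funext fun x => by
        rw [BD.dlt, BD.dlt, propext ⟨fun h' : c.ef v x => (ht v hv).trans h',
          fun h' => (ht v hv).symm.trans h'⟩]
      have h2 : ((∑ i ∈ irrFin c.B, a i * N i χ : ℤ) : ℂ) = 0 := by rw [ha]; simp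
      push_cast at h2
      simp only [← hN8] at h2
      have h3 : (8 : ℂ) * ∑ i ∈ irrFin c.B, (a i : ℂ) * c.mat (c.dlt u) i χ = 0 := by
        rw [← h2, Finset.mul_sum]
        exact Finset.sum_congr rfl fun k _ => by ring
      rw [hv']
      exact (mul_eq_zero.1 h3).resolve_left (by norm_num))
  rw [BD.k, ← card_irrFin]
  exact key.1

end BD

end Cfsg.Lib.R16
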