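import Cfsg.Agent.KKL.Red
import Cfsg.Agent.R16.Tri

/-! Blocks with elementary abelian defect group of order sixteen: the case division. -/

set_option autoImplicit false

open Cfsg Cfsg.Lib.Char Cfsg.Lib.Block Cfsg.Lib.Block.BD Cfsg.Lib.Block.AG Subgroup

namespace Cfsg.Lib.R16

universe v

theorem elb {M : Ideal AlgInt} (kkl : ∀ {S : Type v} [Group S] (c : BD 2 M S), Nat.card S = 8 →
      (∀ x : S, x * x = 1) → c.k = 8) {P : Type v} [Group P] (b : BD 2 M P) (h16 : Nat.card P = 16)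
    (he : ∀ x : P, x * x = 1)
    (fr : FreeAut b.aut → ∀ χ ∈ b.B, blockHeight 2 b.B (χ : b.G → ℂ) = 0)
    (ni : ∀ (V W : Subgroup P) (v w r : P), Grid b V W v w r →
      ∀ χ ∈ b.B, blockHeight 2 b.B (χ : b.G → ℂ) = 0) :
    ∀ χ ∈ b.B, blockHeight 2 b.B (χ : b.G → ℂ) = 0 := by
  have := b.finite
  have hc : ∀ x y : P, x * y = y * x := grp_comm he
  rcases tri h16 b.aut (b.not_dvd_card_aut hc) with ⟨u, u1, hu⟩ | ⟨-, hf⟩ | ⟨h9, hf⟩
  · refine (KKL.red_bd kkl b hc hu ?_ fun z => he z ▸ one_mem _).2.1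
    have h1 := (zpowers u).index_mul_card
    rw [Nat.card_zpowers, orderOf_eq_prime (by rw [sq, he]) u1, h16] at h1
    omega
  · exact fr hf
  obtain ⟨V, W, v, w, a1, a2, a3, a4, a5, a6, a7, a8, a9, a10⟩ := grid_nine h16 h9 hc hf
  exact ni _ _ _ _ _ ⟨hc, a10, h16, a1, a2, a3, fun x => (ef_iff hc).trans (a4 x),
    fun x => (ef_iff hc).trans (a5 x), fun x => (ef_iff hc).trans (a6 x),
    (rk_eq_of_le_three hc a7.le).trans a7, (rk_eq_of_le_three hc a8.le).trans a8,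
    (rk_eq_of_le_three hc (a9.le.trans (by decide))).trans a9⟩

theorem el_of {G : Type v} [Group G] [Finite G] (M : Ideal AlgInt)
    (H : ∀ {P : Type v} [Group P] (b : BD 2 M P), Nat.card P = 16 → (∀ x : P, x * x = 1) →
      ∀ χ ∈ b.B, blockHeight 2 b.B (χ : b.G → ℂ) = 0)
    (hM : IsPModular 2 M) (B : Set (IrrCharacter G)) (hB : IsPBlock M B) (D : Subgroup G)
    (hD : IsDefectGroup 2 M B D) (h16 : Nat.card D = 16) (χ : IrrCharacter G) (hχ : χ ∈ B)
    (he : ∀ x ∈ D, x * x = 1) : blockHeight 2 B (χ : G → ℂ) = 0 := by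
  obtain ⟨e, h⟩ := exists_isMax_eB hM hB hD
  have := Fintype.ofFinite G
  exact H ⟨G, B, D.subtype, e, D.subtype_injective, hM, hB, by rwa [D.range_subtype]⟩ h16
    (fun x => Subtype.ext (he x x.2)) χ hχ

end Cfsg.Lib.R16
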