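import Cfsg.Agent.R16.Free1
import Cfsg.Agent.KKL.ThA

/-!
Height zero for free inertial action on an elementary abelian defect group.
-/

set_option autoImplicit false

open Cfsg Cfsg.Lib.Char Cfsg.Lib.Block

namespace Cfsg.Lib.R16

universe u
variable {M : Ideal AlgInt} {P : Type u} [Group P]

theorem free (b : BD 2 M P) (he : ∀ x : P, x * x = 1) [Nontrivial P] (hf : FreeAut b.aut) :
    ∀ χ ∈ b.B, blockHeight 2 b.B (χ : b.G → ℂ) = 0 := by
  refine Free0.main (BD.abFree (Free1.comm he) hf) BD.D_ne_bot fun x _ hx => ?_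
  refine KKL.even_sum b.hM b.hB b.isDefectGroup BD.D_ne_bot ?_ x fun g hg => ?_
  · rintro _ ⟨y, rfl⟩
    rw [← map_mul, he, map_one]
  · simpa [Finset.sum_apply] using hx g hg

theorem free16 (b : BD 2 M P) (h16 : Nat.card P = 16) (he : ∀ x : P, x * x = 1)
    (hf : FreeAut b.aut) : ∀ χ ∈ b.B, blockHeight 2 b.B (χ : b.G → ℂ) = 0 :=
  haveI := b.finite
  haveI : Nontrivial P := Finite.one_lt_card_iff_nontrivial.1 (by omega)
  free b he hf

end Cfsg.Lib.R16
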