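import Cfsg.Agent.R16.Free0

/-!
Height zero for free inertial action on an elementary abelian defect group, from the evenness of
the Cartan lattice stated with contribution matrices.
-/

set_option autoImplicit false

open scoped MonoidAlgebra ComplexConjugate
open Cfsg Cfsg.Lib.Char Cfsg.Lib.Block Cfsg.Lib.Block.Pair Cfsg.Lib.Block.Star Cfsg.Lib.Block.Tame
  Subgroup

namespace Cfsg.Lib.R16

universe u
variable {M : Ideal AlgInt} {P : Type u} [Group P]

theorem Free1.comm (he : ∀ x : P, x * x = 1) (x y : P) : x * y = y * x := by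
  have hi : ∀ x : P, x⁻¹ = x := fun x => inv_eq_of_mul_eq_one_right (he x)
  rw [← hi (x * y), mul_inv_rev, hi, hi]

theorem free_of (b : BD 2 M P) (he : ∀ x : P, x * x = 1) [Nontrivial P] (hf : FreeAut b.aut)
    (hev : ∀ a : IrrCharacter b.G → ℤ,
      (∀ u : P, u ≠ 1 → ∀ ψ, ∑ χ ∈ irrFin b.B, (a χ : ℂ) * b.mat (b.dlt u) χ ψ = 0) →
      Even (∑ χ ∈ irrFin b.B, a χ)) :
    ∀ χ ∈ b.B, blockHeight 2 b.B (χ : b.G → ℂ) = 0 := by
  classical
  refine Free0.main (BD.abFree (Free1.comm he) hf) BD.D_ne_bot fun x hx _ => hev x fun u hu ψ => ?_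
  have h1 : ∀ χ, b.mat (b.dlt u) χ ψ = ctr 2 M b.D b.e χ ψ (b.eqv u) := fun χ =>
    BD.mat_dl (fun v hv => if_pos hv) (fun v hv => if_neg hv) χ ψ
  have := Fintype.ofFinite (centralizer ({((b.eqv u : b.D) : b.G)} : Set b.G))
  have h2 := hx (b.eqv u) (fun h => hu (b.eqv.injective (h.trans (map_one _).symm)))
  simp only [h1]
  rw [Finset.sum_congr rfl fun (χ : IrrCharacter b.G) _ => by
    rw [ctr_eq b.hM b.max χ.2.isClassFunction ψ.2.isClassFunction, ← classInner_smul_left],
    ← classInner_sum_left]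
  rw [map_sum] at h2
  simp only [map_smul] at h2
  rw [h2]
  simp [classInner]

end Cfsg.Lib.R16
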