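import Cfsg.Agent.Block.BDGrp

/-! Groups of automorphisms of odd order of a group of order sixteen. -/

set_option autoImplicit false

open Cfsg Subgroup Cfsg.Lib.Block Cfsg.Lib.Block.AG

namespace Cfsg.Lib.R16

variable {P : Type*} [Group P] [Finite P] {E : Subgroup (MulAut P)}

theorem dvd_315 (hP : Nat.card P = 16) (hE : ¬ 2 ∣ Nat.card E) : Nat.card E ∣ 315 :=
  (card_dvd_prod (p := 2) (.of_card (n := 4) hP) (m := 4)
    ((index_dvd_card _).trans (by rw [hP]; decide)) hE).trans (by decide)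

theorem card_Fx (hP : Nat.card P = 16) {a : MulAut P} {q : ℕ} (hq : q.Prime) (ha : orderOf a = q) :
    Nat.card (Fx a) % q = 16 % q ∧ (Nat.card (Fx a) = 1 ∨ Nat.card (Fx a) = 2 ∨
      Nat.card (Fx a) = 4 ∨ Nat.card (Fx a) = 8) := by
  have h2 := card_Fx_modEq hq ha (V := ⊤) fun _ _ => trivial
  have h3 := card_lt (V := ⊤) (W := Fx a) fun h0 =>
    ne_one_of_orderOf hq ha (MulEquiv.ext fun y => h0 (mem_top y))
  have h5 := dvd_32 ((hP ▸ card_subgroup_dvd_card (Fx a)).trans (by decide))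
  rw [inf_top_eq, card_top, hP] at h2 h3
  exact ⟨h2, by omega⟩

theorem not_five (hP : Nat.card P = 16) (hE : ¬ 2 ∣ Nat.card E) (h7 : 7 ∣ Nat.card E) :
    ¬ 5 ∣ Nat.card E := fun h3 => by
  have p7 : Nat.Prime 7 := by decide
  have h1 := dvd_315 hP hE
  obtain ⟨H, hH, h4, h5⟩ := FT.Hall_exists (M := E) {5, 7}
    (FT.odd_order_solvable (Nat.odd_iff.2 (by omega)))
  have h6 : ∀ r, r.Prime → r ∈ ({5, 7} : Set ℕ) → r ∣ Nat.card E → ∃ a ∈ H, orderOf a = r :=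
    fun r hr h6 h8 => exists_prime_mem H hr ((hr.dvd_mul.1 (by
      rwa [← Nat.card_congr (subgroupOfEquivOfLe hH).toEquiv, relIndex, card_mul_index])).resolve_right
        (h5 r hr h6))
  obtain ⟨a, ha, oa⟩ := h6 7 p7 (by simp) h7
  obtain ⟨c, hc', oc⟩ := h6 5 Nat.prime_five (by simp) h3
  have h8 : Nat.card H ∣ 7 * 5 := by
    refine Nat.Coprime.dvd_of_dvd_mul_left (m := 9) (Nat.coprime_of_dvd fun r hr h8 h9 => ?_)
      ((card_dvd_of_le hH).trans h1)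
    rcases h4 r hr h8 with rfl | rfl <;> omega
  have h9 : Commute a c :=
    (commute_of_conj_mem p7 oa (conj_mem_of_card p7 (m := 5) h8 (by decide) (by decide)
      ha hc' oa) (by rw [oc]; decide)).symm
  obtain ⟨a1, a2⟩ := card_Fx hP p7 oa
  obtain ⟨c1, c2⟩ := card_Fx hP Nat.prime_five oc
  have h10 := card_Fx_modEq Nat.prime_five oc (V := Fx a) fun x hx => Fx_inv h9 hx
  have h11 := card_le_of_le (inf_le_left (a := Fx c) (b := Fx a))
  have h12 : 0 < Nat.card (Fx c ⊓ Fx a : Subgroup P) := Nat.card_pos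
  rw [Nat.ModEq] at h10
  omega

theorem fix_of_seven (hP : Nat.card P = 16) (hE : ¬ 2 ∣ Nat.card E) (h7 : 7 ∣ Nat.card E) :
    ∃ z : P, z ≠ 1 ∧ ∀ a ∈ E, a z = z := by
  have p7 : Nat.Prime 7 := by decide
  have h4 : Nat.card E ∣ 7 * 9 := Nat.Coprime.dvd_of_dvd_mul_left (m := 5)
    ((Nat.Prime.coprime_iff_not_dvd Nat.prime_five).2 (not_five hP hE h7)).symm (dvd_315 hP hE)
  obtain ⟨a, ha, oa⟩ := exists_prime_mem _ p7 h7
  obtain ⟨a1, a2⟩ := card_Fx hP p7 oa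
  have h2 : Nat.card (Fx a) = 2 := by omega
  obtain ⟨z, hz, hz'⟩ := (Nat.card_eq_two_iff' (1 : Fx a)).1 h2
  have hz1 : (z : P) ≠ 1 := fun h => hz (Subtype.ext h)
  refine ⟨z, hz1, fun g hg => ?_⟩
  have h5 := zpow_fix z.2 (conj_mem_of_card p7 h4 (by decide) (by decide) ha (inv_mem hg) oa)
  have h6 : a (g z) = g z := by
    rw [inv_inv, MulAut.mul_apply, MulAut.mul_apply] at h5
    conv_rhs => rw [← h5]
    simp
  exact congrArg Subtype.val (hz' ⟨g z, h6⟩ fun h => hz1 (by simpa using congrArg Subtype.val h))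

theorem nine_no_fix (hP : Nat.card P = 16) (hE : Nat.card E = 9) {z : P} (hz : z ≠ 1)
    (hf : ∀ a ∈ E, a z = z) : False := by
  have : Fact (Nat.Prime 3) := ⟨Nat.prime_three⟩
  obtain ⟨t, ht, ot⟩ := exists_prime_mem E Nat.prime_three (by rw [hE]; decide)
  obtain ⟨a, ha, oa, -, h4⟩ := exists_three hP hE ht (ne_one_of_orderOf Nat.prime_three ot) hz
    (hf t ht)
  have h0 : ∀ s ∈ E, ∀ t ∈ E, Commute s t := fun s hs t ht => congrArg Subtype.val
    ((IsPGroup.isMulCommutative_of_card_eq_prime_sq (p := 3) hE).is_comm.comm (⟨s, hs⟩ : E) ⟨t, ht⟩)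
  obtain ⟨s, hs, w, hw0, h5, h6⟩ : ∃ s ∈ E, ∃ w ∉ Fx a, s w = w ∧ s ≠ 1 := by
    by_contra! h
    have := free_dvd (E := E) (Fx a : Set P)ᶜ (fun s hs x hx h5 => hx (by
      simpa using Fx_inv (h0 a ha _ (inv_mem hs)) h5)) h
    rw [Set.ncard_compl, hP, hE, show (Fx a : Set P).ncard = 4 from h4] at this
    omega
  have hw1 : w ≠ 1 := fun h => hw0 (h ▸ one_mem _)
  obtain ⟨c, hc, oc, hw, h7⟩ := exists_three hP hE hs h6 hw1 h5
  have h8 := card_Fx_modEq Nat.prime_three oa (V := Fx c) fun _ => Fx_inv (h0 c hc a ha)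
  have h9 := card_lt (V := Fx c) (W := Fx a) fun h => hw0 (h hw)
  have h10 := one_lt_card (V := Fx a ⊓ Fx c) ⟨hf a ha, hf c hc⟩ hz
  rw [Nat.ModEq] at h8
  omega

theorem seven_grp (hP : Nat.card P = 16) (hE : ¬ 2 ∣ Nat.card E) (h7 : 7 ∣ Nat.card E) :
    (Nat.card E = 7 ∨ Nat.card E = 21) ∧ ∃ z : P, z ≠ 1 ∧ ∀ a ∈ E, a z = z := by
  obtain ⟨z, hz, hf⟩ := fix_of_seven hP hE h7
  refine ⟨?_, z, hz, hf⟩
  have : Fact (Nat.Prime 3) := ⟨Nat.prime_three⟩
  have h4 : Nat.card E ∣ 7 * 9 := Nat.Coprime.dvd_of_dvd_mul_left (m := 5)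
    ((Nat.Prime.coprime_iff_not_dvd Nat.prime_five).2 (not_five hP hE h7)).symm (dvd_315 hP hE)
  have h9 : ¬ 3 ^ 2 ∣ Nat.card E := fun h => by
    obtain ⟨K, hK⟩ := Sylow.exists_subgroup_card_pow_prime 3 h
    refine nine_no_fix (E := K.map E.subtype) hP
      (by rw [card_map_of_injective E.subtype_injective, hK]; rfl) hz ?_
    rintro _ ⟨a, -, rfl⟩
    exact hf a a.2
  obtain ⟨m, hm⟩ := h7
  rw [hm] at h4 h9 ⊢
  have h5 := dvd_27 ((Nat.dvd_of_mul_dvd_mul_left (by decide) h4).trans (by decide))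
  omega

theorem free_dvd_15 (hP : Nat.card P = 16) (hf : FreeAut E) : Nat.card E ∣ 15 := by
  have := free_dvd (E := E) ({1} : Set P)ᶜ (fun a _ x hx => by simpa using hx)
    fun a ha x hx h => hf a ha x hx h
  rwa [Set.ncard_compl, hP, Set.ncard_singleton] at this

theorem cases16 (hP : Nat.card P = 16) (hE : ¬ 2 ∣ Nat.card E) :
    (∃ z : P, z ≠ 1 ∧ ∀ a ∈ E, a z = z) ∨
      (FreeAut E ∧ (Nat.card E = 3 ∨ Nat.card E = 5 ∨ Nat.card E = 15)) ∨
      (Nat.card E = 9 ∧ ¬ FreeAut E) := by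
  by_cases h7 : 7 ∣ Nat.card E
  · exact Or.inl (fix_of_seven hP hE h7)
  by_cases h1 : Nat.card E = 1
  · have : Nontrivial P := Finite.one_lt_card_iff_nontrivial.1 (by omega)
    obtain ⟨z, hz⟩ := exists_ne (1 : P)
    refine Or.inl ⟨z, hz, fun a ha => ?_⟩
    rw [card_eq_one.1 h1, mem_bot] at ha
    rw [ha, MulAut.one_apply]
  by_cases hf : FreeAut E
  · refine Or.inr (Or.inl ⟨hf, ?_⟩)
    have h2 := free_dvd_15 hP hf
    have h3 := Nat.le_of_dvd (by decide) h2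
    interval_cases h : Nat.card E <;> omega
  have h2 : Nat.card E ∣ 45 := ((Nat.Prime.coprime_iff_not_dvd (by norm_num)).2
    h7).symm.dvd_of_dvd_mul_left (dvd_315 hP hE)
  have h3 : Nat.card E ∣ 9 := ((Nat.Prime.coprime_iff_not_dvd Nat.prime_five).2
    fun h => hf (free_of_five (hP ▸ dvd_rfl) h2 h)).symm.dvd_of_dvd_mul_left h2
  have h4 := dvd_27 (h3.trans (by decide))
  have h5 := Nat.le_of_dvd (by decide) h3
  by_cases h9 : Nat.card E = 9
  · exact Or.inr (Or.inr ⟨h9, hf⟩)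
  have h6 : Nat.card E = 3 := by omega
  simp only [FreeAut, not_forall] at hf
  obtain ⟨t, ht, v, hv1, h8, h10⟩ := hf
  refine Or.inl ⟨v, hv1, fun a ha => zpow_fix h8 ?_⟩
  have h11 : zpowers t = E := eq_of_le_of_card_ge (zpowers_le.2 ht) (by
    have := one_lt_card (mem_zpowers t) h10
    have h12 := card_dvd_of_le (zpowers_le.2 ht)
    rw [h6] at h12 ⊢
    have := (Nat.dvd_prime Nat.prime_three).1 h12
    omega)
  rwa [h11]

omit [Finite P] in
theorem sb_free (hf : FreeAut E) {u : P} (hu : u ≠ 1) : Nat.card (Sb E u) = 1 :=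
  card_eq_one.2 (eq_bot_iff.2 fun a ha => hf a ha.1 u hu ha.2)

/-- Representatives of the orbits. -/
theorem reps (E : Subgroup (MulAut P)) : ∃ T : Finset P, 1 ∉ T ∧
    (∀ x, x ≠ 1 → ∃ t ∈ T, ∃ a ∈ E, a t = x) ∧ ∀ s ∈ T, ∀ t ∈ T, ∀ a ∈ E, a s = t → s = t := by
  classical
  have := Fintype.ofFinite P
  let r : P → P := fun x => (Quotient.mk (MulAction.orbitRel E P) x).out
  have h1 : ∀ x, ∃ a ∈ E, a (r x) = x := fun x => by
    obtain ⟨a, ha⟩ := (MulAction.orbitRel E P).symm (Quotient.mk_out (s := MulAction.orbitRel E P) x)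
    exact ⟨a, a.2, ha⟩
  have h2 : ∀ x y, ∀ a ∈ E, a x = y → r x = r y := fun x y a ha h =>
    congrArg Quotient.out (Quotient.sound ((MulAction.orbitRel E P).symm ⟨⟨a, ha⟩, h⟩))
  refine ⟨(Finset.univ.image r).erase 1, Finset.notMem_erase _ _, fun x hx => ?_, ?_⟩
  · obtain ⟨a, ha, h⟩ := h1 x
    refine ⟨r x, Finset.mem_erase.2 ⟨fun e => hx ?_, Finset.mem_image_of_mem _ (Finset.mem_univ _)⟩,
      a, ha, h⟩
    rw [← h, e, map_one]
  · intro s hs t ht a ha h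
    obtain ⟨x, -, rfl⟩ := Finset.mem_image.1 (Finset.mem_of_mem_erase hs)
    obtain ⟨y, -, rfl⟩ := Finset.mem_image.1 (Finset.mem_of_mem_erase ht)
    obtain ⟨b, hb, e1⟩ := h1 x
    obtain ⟨c, hc, e2⟩ := h1 y
    refine h2 x y (c * a * b⁻¹) (mul_mem (mul_mem hc ha) (inv_mem hb)) ?_
    rw [MulAut.mul_apply, MulAut.mul_apply, show b⁻¹ x = r x from b.injective (by rw [e1]; simp), h, e2]

theorem reps_free (hP : Nat.card P = 16) (hf : FreeAut E) : ∃ T : Finset P, 1 ∉ T ∧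
    T.card * Nat.card E = 15 ∧ (∀ x, x ≠ 1 → ∃ t ∈ T, ∃ a ∈ E, a t = x) ∧
    ∀ s ∈ T, ∀ t ∈ T, ∀ a ∈ E, a s = t → s = t := by
  obtain ⟨T, h1, h2, h3⟩ := reps E
  refine ⟨T, h1, ?_, h2, h3⟩
  have hT : ∀ t : T, (t : P) ≠ 1 := fun t e => h1 (e ▸ t.2)
  let f : T × E → (({1} : Set P)ᶜ : Set P) := fun x => ⟨x.2.1 x.1.1, by simpa using hT x.1⟩
  have hb : Function.Bijective f := by
    refine ⟨fun x y e => ?_, fun x => ?_⟩
    · have e1 : x.2.1 x.1.1 = y.2.1 y.1.1 := congrArg Subtype.val e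
      have e2 : (y.2.1⁻¹ * x.2.1) x.1.1 = y.1.1 := by rw [MulAut.mul_apply, e1]; simp
      have hm := mul_mem (inv_mem y.2.2) x.2.2
      have e3 := h3 _ x.1.2 _ y.1.2 _ hm e2
      have e4 := hf _ hm _ (hT x.1) (e2.trans e3.symm)
      exact Prod.ext (Subtype.ext e3) (Subtype.ext (inv_mul_eq_one.1 e4).symm)
    · obtain ⟨t, ht, a, ha, e⟩ := h2 x.1 x.2
      exact ⟨(⟨t, ht⟩, ⟨a, ha⟩), Subtype.ext e⟩
  have h4 := Nat.card_eq_of_bijective f hb
  rw [Nat.card_prod, Nat.card_eq_fintype_card (α := T), Fintype.card_coe, Nat.card_coe_set_eq, Set.ncard_compl, hP,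
    Set.ncard_singleton] at h4
  exact h4

end Cfsg.Lib.R16
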