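import Cfsg.Agent.KKL.AltM
import Cfsg.Agent.KKL.Four
import Cfsg.Agent.KKL.Num2
import Cfsg.Agent.KKL.GrpB
import Cfsg.Agent.R16.Diag
import Cfsg.Agent.R16.EvA
import Cfsg.Agent.R16.K8

/-!
Blocks with elementary abelian defect group of order eight have eight characters.
-/

set_option autoImplicit false

open Cfsg Cfsg.Lib Cfsg.Lib.Char Cfsg.Lib.Block MulAction

namespace Cfsg.Lib.R16

universe u

variable {M : Ideal AlgInt} {S : Type u} [Group S]

namespace KE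

theorem comm (hsq : ∀ u : S, u * u = 1) (x y : S) : x * y = y * x := by
  have h := fun a : S => inv_eq_of_mul_eq_one_right (hsq a)
  rw [← h (x * y), mul_inv_rev, h, h]

theorem rk13 (c : BD 2 M S) (h8 : Nat.card S = 8) (hsq : ∀ u : S, u * u = 1) {u : S} (hu : u ≠ 1)
    (ht : ∀ v, v ≠ 1 → c.ef u v) : c.rk u = 1 ∨ c.rk u = 3 := by
  have := c.finite
  have hc := comm hsq
  have e1 : stabilizer c.aut u = (AG.Sb c.aut u).subgroupOf c.aut := by
    ext g
    exact ⟨fun hg => ⟨g.2, hg⟩, fun hg => hg.2⟩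
  have e2 : orbit c.aut u = {1}ᶜ := by
    ext v
    refine ⟨?_, fun hv => ?_⟩
    · rintro ⟨a, rfl⟩ h
      exact hu ((map_eq_one_iff a.1 a.1.injective).1 h)
    · obtain ⟨a, ha, e⟩ := (BD.ef_iff hc).1 (ht v hv)
      exact ⟨⟨a, ha⟩, e⟩
  have e3 := (stabilizer c.aut u).card_mul_index
  rw [index_stabilizer, e2, e1, Nat.card_congr (Subgroup.subgroupOfEquivOfLe
    (show AG.Sb c.aut u ≤ c.aut from inf_le_left)).toEquiv, Set.ncard_compl,
    Set.ncard_singleton, h8] at e3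
  have h := KKL.grpB h8 hsq c.aut (c.not_dvd_card_aut hc)
  have h3 : Nat.card (AG.Sb c.aut u) = 1 ∨ Nat.card (AG.Sb c.aut u) = 3 := by omega
  rw [BD.rk_eq_of_le_three hc (by omega)]
  exact h3

theorem odd (c : BD 2 M S) (h8 : Nat.card S = 8) (hsq : ∀ u : S, u * u = 1) {u : S} (hu : u ≠ 1)
    (η : regLat 2 (c.sb u)) (ho : ¬ (2 : ℤ) ∣ bf 2 (c.sb u) η η) :
    bf 2 (c.sb u) η η % 8 = c.rk u := by
  have := c.finite
  have h4 : u ∈ Subgroup.center S := Subgroup.mem_center_iff.2 fun g => comm hsq g u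
  have := normal_zpowers h4
  obtain ⟨d, h5⟩ := c.exists_cq' h4
  obtain ⟨-, ε, h6, -⟩ := h5.iso
  obtain ⟨η, rfl⟩ := ε.surjective η
  rw [h6] at ho ⊢
  rw [← h5.l_eq]
  refine KKL.four d ?_ (fun x => ?_) η ho
  · have h7 := (Subgroup.zpowers u).card_mul_index
    rw [Nat.card_zpowers, orderOf_eq_prime (p := 2) (by rw [sq, hsq]) hu, h8] at h7
    rw [← Subgroup.index_eq_card]; omega
  · obtain ⟨x, rfl⟩ := QuotientGroup.mk_surjective x
    rw [← QuotientGroup.mk_mul, hsq, QuotientGroup.mk_one]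

theorem eight (c : BD 2 M S) (h8 : Nat.card S = 8) (hsq : ∀ u : S, u * u = 1) {u : S} (hu : u ≠ 1)
    (ht : ∀ v, v ≠ 1 → c.ef u v) : c.k = 8 := by
  classical
  have := c.finite
  have : Nontrivial S := ⟨u, 1, hu⟩
  have hr := rk13 c h8 hsq hu ht
  have hz : u ∈ Subgroup.center S := Subgroup.mem_center_iff.2 fun g => comm hsq g u
  obtain ⟨η, hm, hs, hη⟩ := KKL.num2 c h8 hsq hu ht
  obtain ⟨N, hN, od, -⟩ := diag c hsq u
  rw [h8, Nat.cast_ofNat] at hN
  have eN : ∀ χ ψ, N χ ψ = bf 2 (c.sb u) (η χ) (η ψ) := fun χ ψ => by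
    exact_mod_cast (hN χ ψ).symm.trans (hm χ ψ)
  simp only [← eN] at hs hη
  have h0 : ∀ χ ∈ c.B, blockHeight 2 c.B (χ : c.G → ℂ) = 0 → N χ χ = c.rk u := fun χ hχ h => by
    obtain ⟨a1, a2, a3, -⟩ := hη χ hχ
    have := odd c h8 hsq hu (η χ) (eN χ χ ▸ a3.1 h)
    rw [← eN] at this
    omega
  have h1 : ∀ χ ∈ c.B, ¬ blockHeight 2 c.B (χ : c.G → ℂ) = 0 → N χ χ = 4 := fun χ hχ h => by
    obtain ⟨a1, a2, -, a4⟩ := hη χ hχ
    have a6 : (2 : ℤ) ^ 2 ∣ _ := (pow_dvd_pow 2 (by omega)).trans (a4 h)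
    omega
  have hs' := hs
  rw [← Finset.sum_filter_add_sum_filter_not _ fun χ : IrrCharacter c.G =>
      blockHeight 2 c.B (χ : c.G → ℂ) = 0,
    Finset.sum_congr rfl fun χ hχ => h0 χ (mem_irrFin.1 (Finset.mem_filter.1 hχ).1)
      (Finset.mem_filter.1 hχ).2,
    Finset.sum_congr rfl fun χ hχ => h1 χ (mem_irrFin.1 (Finset.mem_filter.1 hχ).1)
      (Finset.mem_filter.1 hχ).2, Finset.sum_const, Finset.sum_const, nsmul_eq_mul,
    nsmul_eq_mul] at hs'
  obtain ⟨ψ, hψ, hψ0⟩ := Ht.exists_blockHeight_eq_zero 2 (isPBlock_nonempty c.hM c.hB)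
  have hd : ∀ v, v ≠ 1 → c.dlt v = c.dlt u := fun v hv => funext fun x => by
    rw [BD.dlt, BD.dlt, propext ⟨fun h : c.ef v x => (ht v hv).trans h,
      fun h => (ht v hv).symm.trans h⟩]
  have hdd : c.dlt u * c.dlt u = c.dlt u := funext fun x => by
    rw [Pi.mul_apply, BD.dlt]; split_ifs <;> simp
  have key := KKL.AltM.pure (s := irrFin c.B) (N := N)
    (fun χ => blockHeight 2 c.B (χ : c.G → ℂ) = 0) (r := c.rk u) (fun i j => ?_) (fun i j => ?_)
    (fun a ha => evA c hsq a fun v hv ξ => ?_)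
    (fun i hi j hj => od i (mem_irrFin.1 hi) j (mem_irrFin.1 hj))
    (fun i hi => (hη i (mem_irrFin.1 hi)).1) (fun i hi => h1 i (mem_irrFin.1 hi))
    (fun i hi j hj h e => ?_) hs hr (by
      rw [mul_comm _ (c.rk u : ℤ), mul_comm _ (4 : ℤ)] at hs'
      exact_mod_cast hs') ⟨ψ, mem_irrFin.2 hψ, hψ0⟩
  · rw [Finset.sum_congr rfl fun χ hχ => h0 χ (mem_irrFin.1 hχ) (key χ hχ), Finset.sum_const,
      nsmul_eq_mul, card_irrFin] at hs
    rw [BD.k]
    rcases hr with h | h <;> rw [h] at hs <;> push_cast at hs <;> omega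
  · have h := BD.conj_mat (BD.st_dlt (b := c) u) (fun v => by
      rw [BD.dlt]; split_ifs <;> simp) i j
    have h2 : (N j i : ℂ) = N i j := by
      rw [← hN j i, ← h, ← map_ofNat (starRingEnd ℂ) 8, ← map_mul, hN, map_intCast]
    exact_mod_cast h2.symm
  · have h := BD.mat_mul (BD.st_dlt (b := c) u) (BD.st_dlt (b := c) u) i j
    rw [hdd] at h
    have h2 : ((∑ k ∈ irrFin c.B, N i k * N k j : ℤ) : ℂ) = (8 * N i j : ℤ) := by
      push_cast
      simp only [← hN]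
      rw [← h, Finset.mul_sum, Finset.mul_sum]
      exact Finset.sum_congr rfl fun _ _ => by ring
    exact_mod_cast h2
  · have h2 := congrArg (Int.cast (R := ℂ)) (ha ξ)
    push_cast at h2
    simp only [← hN] at h2
    rw [hd v hv]
    refine (mul_eq_zero.1 ?_).resolve_left (show (8 : ℂ) ≠ 0 by norm_num)
    rw [← h2, Finset.mul_sum]
    exact Finset.sum_congr rfl fun _ _ => by ring
  · refine Star.ctr_ne_zero_of_central c.hM c.max c.hB (mem_irrFin.1 hi) (mem_irrFin.1 hj) h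
      (v := c.eqv u) (c.le_cent hz) ?_
    rw [← BD.mat_dl (l := c.dlt u) (fun _ hv => if_pos hv) (fun _ hv => if_neg hv)]
    have h2 := hN i j
    rw [e, Int.cast_zero] at h2
    exact (mul_eq_zero.1 h2).resolve_left (by norm_num)

end KE

theorem kklE (c : BD 2 M S) (h8 : Nat.card S = 8) (he : ∀ x : S, x * x = 1) : c.k = 8 :=
  k8 c h8 he fun _ hu ht => KE.eight c h8 he hu ht

end Cfsg.Lib.R16
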