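import Cfsg.Agent.R16.Tri
import Cfsg.Agent.Block.BDAb

/-! Blocks with elementary abelian defect group of order sixteen and inertial index divisible
by seven. -/

set_option autoImplicit false

open Cfsg Cfsg.Lib.Char Cfsg.Lib.Block Cfsg.Lib.Block.AG Subgroup

namespace Cfsg.Lib.R16

universe u
variable {M : Ideal AlgInt} {P : Type u} [Group P]

namespace Seven

theorem nf_mul (b : BD 2 M P) (hc : ∀ x y : P, x * y = y * x) (u : P) :
    b.nf u * Nat.card (Sb b.aut u) = Nat.card b.aut := by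
  have := b.finite
  have h1 : b.nf u = Nat.card (MulAction.orbit b.aut u) :=
    Nat.card_congr (Equiv.subtypeEquivRight fun v => (BD.ef_iff hc).trans
      ⟨fun ⟨a, ha, h⟩ => ⟨⟨a, ha⟩, h⟩, fun ⟨a, h⟩ => ⟨a, a.2, h⟩⟩)
  have h2 : Nat.card (Sb b.aut u) = Nat.card (MulAction.stabilizer b.aut u) := by
    rw [← Nat.card_congr (subgroupOfEquivOfLe (inf_le_left : Sb b.aut u ≤ b.aut)).toEquiv]
    congr 3
    ext a
    exact ⟨fun h => h.2, fun h => ⟨a.2, h⟩⟩
  rw [h1, h2, ← Nat.card_prod, Nat.card_congr (MulAction.orbitProdStabilizerEquivGroup b.aut u)]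

theorem wt_fix (b : BD 2 M P) (hc : ∀ x y : P, x * y = y * x) {u : P} (hu : ∀ a ∈ b.aut, a u = u) :
    b.wt u = b.l := by
  have := b.finite
  have h1 := nf_mul b hc u
  rw [show Sb b.aut u = b.aut from inf_eq_left.2 hu, mul_eq_right₀ Nat.card_pos.ne'] at h1
  rw [BD.wt, h1, BD.watanabe hc hu, Nat.cast_one, div_one]

theorem wt_mov (b : BD 2 M P) (hc : ∀ x y : P, x * y = y * x) (hP : Nat.card P ≤ 16)
    (h : Nat.card b.aut = 7 ∨ Nat.card b.aut = 21) {u : P} (hu : ¬ 7 ∣ Nat.card (Sb b.aut u)) :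
    b.rk u ≤ 3 ∧ b.wt u = (Nat.card b.aut : ℚ) / 49 := by
  have := b.finite
  have h1 := nf_mul b hc u
  have h2 : b.nf u ≤ Nat.card P := Finite.card_subtype_le _
  have h3 : b.nf u = 7 ∧ Nat.card (Sb b.aut u) * 7 = Nat.card b.aut := by
    generalize b.nf u = n at *
    generalize Nat.card (Sb b.aut u) = s at *
    have : n ≤ 16 := by omega
    interval_cases n <;> omega
  have h4 := BD.rk_eq_of_le_three hc (b := b) (u := u) (by omega)
  refine ⟨by omega, ?_⟩
  rw [BD.wt, h3.1, h4, ← h3.2]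
  push_cast
  ring

theorem not_seven {S : Type*} [Group S] [Finite S] {E : Subgroup (MulAut S)} {u : S} {m : ℕ}
    (hS : Nat.card S = 8 ∧ m = 2 ∨ Nat.card S = 16 ∧ m = 3)
    (hu : ∀ a ∈ E, a u = u → m ≤ Nat.card (Fx a)) : ¬ 7 ∣ Nat.card (Sb E u) := fun h => by
  have p7 : Nat.Prime 7 := by decide
  obtain ⟨a, ha, oa⟩ := exists_prime_mem _ p7 h
  have h1 := hu a ha.1 ha.2
  have h2 := card_Fx_modEq p7 oa (V := ⊤) fun _ _ => trivial
  have h3 := card_lt (V := ⊤) (W := Fx a) fun h0 =>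
    ne_one_of_orderOf p7 oa (MulEquiv.ext fun y => h0 (mem_top y))
  have h4 := dvd_32 ((card_subgroup_dvd_card (Fx a)).trans
    (by rcases hS with h | h <;> rw [h.1] <;> decide))
  rw [inf_top_eq, card_top] at h2 h3
  rw [Nat.ModEq] at h2
  omega

end Seven

open Seven in
theorem seven (kkl : ∀ {S : Type u} [Group S] (c : BD 2 M S), Nat.card S = 8 →
      (∀ x : S, x * x = 1) → c.k = 8)
    (b : BD 2 M P) (h16 : Nat.card P = 16) (he : ∀ x : P, x * x = 1)
    (h : 7 ∣ Nat.card b.aut) : ∀ χ ∈ b.B, blockHeight 2 b.B (χ : b.G → ℂ) = 0 := by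
  classical
  have := b.finite
  have := Fintype.ofFinite P
  have hc : ∀ x y : P, x * y = y * x := grp_comm he
  have ho := b.not_dvd_card_aut hc
  obtain ⟨z, z1, hz⟩ := grp_seven h16 b.aut ho h
  have h4 := mem_center_iff.2 fun g => hc g z
  have := normal_zpowers h4
  obtain ⟨c, h5⟩ := b.exists_cq' h4
  have hc' := comm_of_surj h5.surj hc
  have h8 : Nat.card (P ⧸ zpowers z) = 8 := by
    have := (zpowers z).index_mul_card
    rw [Nat.card_zpowers, orderOf_eq_prime (p := 2) (by rw [sq, he]) z1, h16] at this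
    change (zpowers z).index = 8
    omega
  have k8 := kkl c h8 fun x => by
    obtain ⟨x, rfl⟩ := h5.surj x
    rw [← map_mul, he, map_one]
  have ea : Nat.card c.aut = Nat.card b.aut := by
    rw [h5.card_aut ho, show Sb b.aut z = b.aut from inf_eq_left.2 hz]
  have e7 : Nat.card b.aut = 7 ∨ Nat.card b.aut = 21 := by
    have h1 : Nat.card c.aut ∣ 21 := (card_dvd_prod c.isPGroup (m := 3)
      ((index_dvd_card _).trans (by rw [h8]; decide)) (c.not_dvd_card_aut hc')).trans (by decide)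
    rw [ea] at h1
    have := Nat.le_of_dvd (by decide) h1
    generalize Nat.card b.aut = n at *
    interval_cases n <;> omega
  have := Fintype.ofFinite (P ⧸ zpowers z)
  have s8 := c.k_eq_sum
  rw [← Finset.sum_add_sum_compl {1}, Finset.sum_singleton, wt_fix c hc' fun a _ => map_one a,
    Finset.sum_congr rfl fun s hs => (wt_mov c hc' (by omega) (ea ▸ e7) (not_seven (.inl ⟨h8, rfl⟩)
      fun a _ ha => one_lt_card (V := Fx a) ha (by simpa using hs))).2, Finset.sum_const,
    Finset.card_compl, ← Nat.card_eq_fintype_card, h8, k8, ea, h5.l_eq, BD.watanabe hc hz] at s8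
  have mv : ∀ x ∈ ({1, z}ᶜ : Finset P), b.rk x ≤ 3 ∧ b.wt x = (Nat.card b.aut : ℚ) / 49 :=
    fun x hx => wt_mov b hc h16.le e7 (not_seven (.inr ⟨h16, rfl⟩) fun a ha hax => by
      simp only [Finset.mem_compl, Finset.mem_insert, Finset.mem_singleton, not_or] at hx
      have : ({1, z, x} : Finset P).card = 3 :=
        Finset.card_eq_three.2 ⟨_, _, _, z1.symm, Ne.symm hx.1, Ne.symm hx.2, rfl⟩
      rw [← this, ← Nat.card_eq_finsetCard]
      refine Nat.card_le_card_of_injective (fun y => (⟨y.1, ?_⟩ : Fx a))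
        fun _ _ e => Subtype.ext (congrArg (fun t : Fx a => t.1) e)
      have := y.2
      simp only [Finset.mem_insert, Finset.mem_singleton] at this
      rcases this with e | e | e <;> rw [e]
      exacts [one_mem _, hz a ha, hax])
  have s16 := b.k_eq_sum
  have cc : ({1, z}ᶜ : Finset P).card = 14 := by
    rw [Finset.card_compl, ← Nat.card_eq_fintype_card, h16, Finset.card_pair z1.symm]
  rw [← Finset.sum_add_sum_compl {1, z}, Finset.sum_pair z1.symm, wt_fix b hc fun a _ => map_one a,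
    wt_fix b hc hz, Finset.sum_congr rfl fun x hx => (mv x hx).2, Finset.sum_const, cc] at s16
  have k16 : b.k = 16 := by
    simp only [Finset.card_singleton, nsmul_eq_mul] at s8 s16
    push_cast at s8 s16
    exact_mod_cast (show (b.k : ℚ) = 16 by linarith)
  obtain ⟨u, hu⟩ := Finset.card_pos.1 (show 0 < ({1, z}ᶜ : Finset P).card by omega)
  have h1 := weighted_le_of_major_rank_le_three b.hM rfl (isMax_pElt b.max (b.mem u))
    (isInducedBlock_subBlk b.hM b.hB b.max (b.mem u))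
    (blockDefect_subBlk_of_le b.hM b.hB b.max (b.mem u)
      (b.le_cent (mem_center_iff.2 fun g => hc g u))) (mv u hu).1
  have h2 : (2 : ℤ) ^ blockDefect 2 b.B = 16 := by exact_mod_cast b.card_eq.symm.trans h16
  intro χ hχ
  by_contra h0
  have h3 : ∀ ψ : IrrCharacter b.G, blockHeight 2 b.B (ψ : b.G → ℂ) ≠ 0 →
      (3 : ℤ) < 2 * 2 ^ blockHeight 2 b.B (ψ : b.G → ℂ) := fun ψ h0 => by
    obtain ⟨n, hn⟩ := Nat.exists_eq_succ_of_ne_zero h0
    have : (0 : ℤ) < 2 ^ n := by positivity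
    rw [hn, pow_succ]
    omega
  have h6 : ∑ χ ∈ irrFin b.B, (3 : ℤ) < _ := lt_of_lt_of_le (Finset.sum_lt_sum (fun ψ _ => ?_)
    ⟨χ, mem_irrFin.2 hχ, ?_⟩) h1
  · rw [Finset.sum_const, card_irrFin, nsmul_eq_mul, h2, show Nat.card b.B = 16 from k16] at h6
    omega
  · split_ifs with h7
    exacts [le_rfl, (h3 ψ h7).le]
  · rw [if_neg h0]
    exact h3 χ h0

end Cfsg.Lib.R16
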