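import Cfsg.Agent.R16.Wt

/-!
A `2`-block with elementary abelian defect group of order `16` and at most three inertial
automorphisms has only characters of height zero.
-/

set_option autoImplicit false

open Cfsg Cfsg.Lib.Char Cfsg.Lib.Block Cfsg.Lib.Block.Pair

namespace Cfsg.Lib.R16

universe u
variable {M : Ideal AlgInt} {P : Type u} [Group P]

theorem small (b : BD 2 M P) (h16 : Nat.card P = 16) (he : ∀ x : P, x * x = 1)
    (h : Nat.card b.aut ≤ 3) : ∀ χ ∈ b.B, blockHeight 2 b.B (χ : b.G → ℂ) = 0 := by
  classical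
  intro χ hχ
  by_contra h0
  have := b.finite
  have := Fintype.ofFinite b.D
  have := Fintype.ofFinite b.aut
  have hi : ∀ x : P, x⁻¹ = x := fun x => inv_eq_of_mul_eq_one_right (he x)
  have hc : ∀ x : P, x ∈ Subgroup.center P := fun x => Subgroup.mem_center_iff.2 fun y => by
    rw [← hi (y * x), mul_inv_rev, hi, hi]
  have hD : ∀ z : b.D, z ∈ Subgroup.center b.D := fun z => Subgroup.mem_center_iff.2 fun y =>
    b.eqv.symm.injective (by
      rw [map_mul, map_mul]
      exact Subgroup.mem_center_iff.1 (hc _) _)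
  have key := wt b.hM b.hB b.max hχ h0 (fun _ => 1 / 3) (fun _ => by norm_num)
    (fun _ _ _ _ => rfl) fun w => by
      have h1 : (Finset.univ.filter fun z : b.D => z ∈ Subgroup.center b.D ∧
          EF 2 b.D b.e z w).card ≤ 3 := by
        refine le_trans ?_ h
        rw [Nat.card_eq_fintype_card, ← Finset.card_univ]
        refine le_trans (Finset.card_le_card fun z hz => ?_) (Finset.card_image_le
          (f := fun a : b.aut => b.eqv ((a : MulAut P) (b.eqv.symm w))))
        have h2 : b.ef (b.eqv.symm z) (b.eqv.symm w) := by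
          rw [BD.ef, b.ι_symm, b.ι_symm]
          exact (Finset.mem_filter.1 hz).2.2
        obtain ⟨a, ha, h3⟩ := h2.symm.exists_aut (hc _) (hc _)
        exact Finset.mem_image.2 ⟨⟨a, ha⟩, Finset.mem_univ _, by
          simp only [h3, MulEquiv.apply_symm_apply]⟩
      rw [Finset.sum_const, nsmul_eq_mul]
      have h4 : ((Finset.univ.filter fun z : b.D => z ∈ Subgroup.center b.D ∧
          EF 2 b.D b.e z w).card : ℝ) ≤ 3 := by exact_mod_cast h1
      linarith
  rw [Finset.filter_true_of_mem fun z _ => hD z, Finset.sum_const, nsmul_eq_mul, Finset.card_univ,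
    ← Nat.card_eq_fintype_card, b.card_D, h16] at key
  have h5 : (2 : ℝ) ^ 2 ≤ 2 ^ (blockHeight 2 b.B (χ : b.G → ℂ) + 1) :=
    pow_le_pow_right₀ (by norm_num) (by omega)
  norm_num at key h5
  linarith

end Cfsg.Lib.R16
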